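import Mathlib

/-!
Arithmetic for bounding the order of a group of Lie type by a power of its `p`-part.
-/

set_option autoImplicit false

namespace CfsgLib.LieOrderBound

/-- A product formula `d * N = q ^ e * B` with `d`, `B` prime to `p` and `B < q ^ D`. -/
theorem bounds {p q f e d N B D : ℕ} (hp : p.Prime) (hq : q = p ^ f)
    (hd : ¬ p ∣ d) (hB : ¬ p ∣ B) (h : d * N = q ^ e * B) (hBD : B < q ^ D) (hDe : 3 * D ≤ 5 * e) :
    N < p ^ (3 * N.factorization p) ∧ N ^ 3 < p ^ (8 * N.factorization p) := by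
  have hd0 : d ≠ 0 := fun h0 => hd (h0 ▸ dvd_zero p)
  have hB0 : B ≠ 0 := fun h0 => hB (h0 ▸ dvd_zero p)
  have hq0 : 0 < q := hq ▸ pow_pos hp.pos f
  have hN0 : N ≠ 0 := fun h0 => by
    rw [h0, mul_zero] at h
    exact mul_ne_zero (pow_ne_zero _ hq0.ne') hB0 h.symm
  have hk : N.factorization p = f * e := by
    have := congrArg (fun n => n.factorization p) h
    simp only [Nat.factorization_mul hd0 hN0, Nat.factorization_mul (pow_ne_zero _ hq0.ne') hB0,
      Finsupp.coe_add, Pi.add_apply, Nat.factorization_eq_zero_of_not_dvd hd,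
      Nat.factorization_eq_zero_of_not_dvd hB, zero_add, add_zero] at this
    rw [this, hq, ← pow_mul, hp.factorization_pow, Finsupp.single_eq_same]
  have hlt : N < q ^ (e + D) := by
    calc N ≤ d * N := Nat.le_mul_of_pos_left N (Nat.pos_of_ne_zero hd0)
      _ = q ^ e * B := h
      _ < q ^ e * q ^ D := Nat.mul_lt_mul_of_pos_left hBD (pow_pos hq0 e)
      _ = q ^ (e + D) := (pow_add q e D).symm
  have h3 : N ^ 3 < p ^ (8 * N.factorization p) := by
    calc N ^ 3 < (q ^ (e + D)) ^ 3 := Nat.pow_lt_pow_left hlt (by norm_num)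
      _ ≤ q ^ (8 * e) := by
        rw [← pow_mul]
        exact Nat.pow_le_pow_right hq0 (by omega)
      _ = p ^ (8 * N.factorization p) := by rw [hk, hq, ← pow_mul]; ring_nf
  refine ⟨lt_of_pow_lt_pow_left₀ 3 (Nat.zero_le _) (h3.trans_le ?_), h3⟩
  rw [← pow_mul]
  exact Nat.pow_le_pow_right hp.pos (by omega)

/-- The case of `PSL₂`. -/
theorem bounds_two {p q f d N : ℕ} (hp : p.Prime) (hq : q = p ^ f)
    (hd : ¬ p ∣ d) (hB : ¬ p ∣ q ^ 2 - 1) (h : d * N = q * (q ^ 2 - 1)) :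
    N < p ^ (3 * N.factorization p) ∧ q = p ^ N.factorization p := by
  have hd0 : d ≠ 0 := fun h0 => hd (h0 ▸ dvd_zero p)
  have hB0 : q ^ 2 - 1 ≠ 0 := fun h0 => hB (h0 ▸ dvd_zero p)
  have hq0 : 0 < q := hq ▸ pow_pos hp.pos f
  have hN0 : N ≠ 0 := fun h0 => by
    rw [h0, mul_zero] at h
    exact mul_ne_zero hq0.ne' hB0 h.symm
  have hk : N.factorization p = f := by
    have := congrArg (fun n => n.factorization p) h
    simp only [Nat.factorization_mul hd0 hN0, Nat.factorization_mul hq0.ne' hB0,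
      Finsupp.coe_add, Pi.add_apply, Nat.factorization_eq_zero_of_not_dvd hd,
      Nat.factorization_eq_zero_of_not_dvd hB, zero_add, add_zero] at this
    rw [this, hq, hp.factorization_pow, Finsupp.single_eq_same]
  have hqk : q = p ^ N.factorization p := by rw [hk]; exact hq
  refine ⟨?_, hqk⟩
  calc N ≤ d * N := Nat.le_mul_of_pos_left N (Nat.pos_of_ne_zero hd0)
    _ = q * (q ^ 2 - 1) := h
    _ < q * q ^ 2 := Nat.mul_lt_mul_of_pos_left (by
        have : 0 < q ^ 2 := pow_pos hq0 2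
        omega) hq0
    _ = p ^ (3 * N.factorization p) := by
      rw [show q * q ^ 2 = q ^ 3 by ring, hqk, ← pow_mul, mul_comm]

variable {p q : ℕ}

theorem not_dvd_pow_sub_one (hp : p.Prime) (hpq : p ∣ q) (hq0 : 0 < q) {i : ℕ} (hi : i ≠ 0) :
    ¬ p ∣ q ^ i - 1 := by
  intro h
  have h2 := Nat.dvd_sub (hpq.trans (dvd_pow_self q hi)) h
  rw [Nat.sub_sub_self (Nat.one_le_pow _ _ hq0)] at h2
  exact hp.ne_one (Nat.dvd_one.1 h2)

theorem not_dvd_pow_add_one (hp : p.Prime) (hpq : p ∣ q) {i : ℕ} (hi : i ≠ 0) :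
    ¬ p ∣ q ^ i + 1 := fun h =>
  hp.ne_one (Nat.dvd_one.1 ((Nat.dvd_add_right (hpq.trans (dvd_pow_self q hi))).1 h))

theorem not_dvd_mul' (hp : p.Prime) {a b : ℕ} (ha : ¬ p ∣ a) (hb : ¬ p ∣ b) : ¬ p ∣ a * b :=
  fun h => (hp.dvd_mul.1 h).elim ha hb

theorem not_dvd_prod (hp : p.Prime) {n : ℕ} {g : ℕ → ℕ} (h : ∀ i < n, ¬ p ∣ g i) :
    ¬ p ∣ ∏ i ∈ Finset.range n, g i := fun hd => by
  obtain ⟨i, hi, hi'⟩ := (Prime.dvd_finset_prod_iff hp.prime g).1 hd
  exact h i (Finset.mem_range.1 hi) hi'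

theorem not_dvd_of_dvd {a b : ℕ} (h : a ∣ b) (hb : ¬ p ∣ b) : ¬ p ∣ a := fun ha => hb (ha.trans h)

theorem sub_one_mul_le {a x : ℕ} : (a - 1) * x ≤ a * x := Nat.mul_le_mul_right x (Nat.sub_le a 1)

/-- `∏_{i<m} (q^{2(i+1)} - 1) ≤ q^(m(m+1))`, strictly if `0 < m`. -/
theorem prod_even_le (m : ℕ) : ∏ i ∈ Finset.range m, (q ^ (2 * (i + 1)) - 1) ≤ q ^ (m * (m + 1)) := by
  induction m with
  | zero => simp
  | succ m ih =>
    rw [Finset.prod_range_succ, show (m + 1) * (m + 1 + 1) = m * (m + 1) + 2 * (m + 1) by ring, pow_add]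
    exact Nat.mul_le_mul ih (Nat.sub_le _ _)

theorem prod_even_lt (hq0 : 0 < q) {m : ℕ} (hm : 0 < m) :
    ∏ i ∈ Finset.range m, (q ^ (2 * (i + 1)) - 1) < q ^ (m * (m + 1)) := by
  obtain ⟨m, rfl⟩ := Nat.exists_eq_succ_of_ne_zero hm.ne'
  rw [Nat.succ_eq_add_one, Finset.prod_range_succ,
    show (m + 1) * (m + 1 + 1) = m * (m + 1) + 2 * (m + 1) by ring, pow_add]
  calc (∏ i ∈ Finset.range m, (q ^ (2 * (i + 1)) - 1)) * (q ^ (2 * (m + 1)) - 1)
      ≤ q ^ (m * (m + 1)) * (q ^ (2 * (m + 1)) - 1) := Nat.mul_le_mul_right _ (prod_even_le m)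
    _ < _ := Nat.mul_lt_mul_of_pos_left (Nat.sub_lt (pow_pos hq0 _) one_pos) (pow_pos hq0 _)

/-- Twice the exponent is `(n-1)(n+2)`. -/
def degSum (n : ℕ) : ℕ := ∑ i ∈ Finset.range n, (i + 2)

theorem two_mul_degSum (n : ℕ) : 2 * degSum n = n * (n + 3) := by
  induction n with
  | zero => rfl
  | succ n ih =>
    rw [degSum, Finset.sum_range_succ, mul_add, ← degSum, ih]
    ring

theorem prod_linear_lt (hq0 : 0 < q) {n : ℕ} (hn : 0 < n) :
    ∏ i ∈ Finset.range n, (q ^ (i + 2) - 1) < q ^ degSum n := by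
  rw [degSum, ← Finset.prod_pow_eq_pow_sum]
  obtain ⟨n, rfl⟩ := Nat.exists_eq_succ_of_ne_zero hn.ne'
  rw [Nat.succ_eq_add_one, Finset.prod_range_succ, Finset.prod_range_succ]
  calc (∏ i ∈ Finset.range n, (q ^ (i + 2) - 1)) * (q ^ (n + 2) - 1)
      ≤ (∏ i ∈ Finset.range n, q ^ (i + 2)) * (q ^ (n + 2) - 1) :=
        Nat.mul_le_mul_right _ (Finset.prod_le_prod' fun i _ => Nat.sub_le _ _)
    _ < _ := Nat.mul_lt_mul_of_pos_left (Nat.sub_lt (pow_pos hq0 _) one_pos)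
        (Finset.prod_pos fun i _ => pow_pos hq0 _)

/-- The unitary product without its first factor. -/
def unitaryProd (q n : ℕ) : ℕ :=
  ∏ i ∈ Finset.range n, (if Even i then q ^ (i + 2) - 1 else q ^ (i + 2) + 1)

theorem unitary_pair_lt (hq : 2 ≤ q) (j : ℕ) :
    (q ^ (2 * j + 2) - 1) * (q ^ (2 * j + 3) + 1) < q ^ (2 * j + 2) * q ^ (2 * j + 3) := by
  have h2 : q ^ (2 * j + 2) < q ^ (2 * j + 3) := Nat.pow_lt_pow_right (by omega) (by omega)
  set a := q ^ (2 * j + 2)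
  set b := q ^ (2 * j + 3)
  have ha : 0 < a := pow_pos (by omega) _
  have hb : 0 < a * b := Nat.mul_pos ha (by omega)
  calc (a - 1) * (b + 1) = a * b + a - (b + 1) := by rw [Nat.sub_mul, one_mul, mul_add, mul_one]
    _ < a * b := by omega

theorem unitary_two_mul_lt (hq : 2 ≤ q) : ∀ j : ℕ, unitaryProd q (2 * (j + 1)) < q ^ degSum (2 * (j + 1))
  | 0 => by
    have h := unitary_pair_lt hq 0
    have h1 : unitaryProd q 2 = (q ^ 2 - 1) * (q ^ 3 + 1) := by simp [unitaryProd, Finset.prod_range_succ]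
    have h2 : degSum 2 = 2 + 3 := rfl
    rw [show 2 * (0 + 1) = 2 from rfl, h1, h2, pow_add]
    simpa using h
  | j + 1 => by
    have ih := unitary_two_mul_lt hq j
    have hstep : ∀ n, unitaryProd q (2 * n + 2) =
        unitaryProd q (2 * n) * ((q ^ (2 * n + 2) - 1) * (q ^ (2 * n + 3) + 1)) := fun n => by
      simp [unitaryProd, Finset.prod_range_succ, mul_assoc]
    have hdeg : ∀ n, degSum (2 * n + 2) = degSum (2 * n) + (2 * n + 2) + (2 * n + 3) := fun n => by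
      simp [degSum, Finset.sum_range_succ]
    rw [show 2 * (j + 1 + 1) = 2 * (j + 1) + 2 by ring, hstep, hdeg,
      show q ^ (degSum (2 * (j + 1)) + (2 * (j + 1) + 2) + (2 * (j + 1) + 3)) =
        q ^ degSum (2 * (j + 1)) * (q ^ (2 * (j + 1) + 2) * q ^ (2 * (j + 1) + 3)) by
          rw [← pow_add, ← pow_add, add_assoc]]
    exact Nat.mul_lt_mul_of_lt_of_le ih (unitary_pair_lt hq (j + 1)).le (by positivity)

theorem unitaryProd_lt (hq : 2 ≤ q) {n : ℕ} (hn : 0 < n) : unitaryProd q n < q ^ degSum n := by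
  rcases Nat.even_or_odd' n with ⟨j, rfl | rfl⟩
  · obtain ⟨j, rfl⟩ := Nat.exists_eq_succ_of_ne_zero (show j ≠ 0 by omega)
    exact unitary_two_mul_lt hq j
  · have h1 : unitaryProd q (2 * j + 1) = unitaryProd q (2 * j) * (q ^ (2 * j + 2) - 1) := by
      simp [unitaryProd, Finset.prod_range_succ]
    have h2 : degSum (2 * j + 1) = degSum (2 * j) + (2 * j + 2) := by simp [degSum, Finset.sum_range_succ]
    have h3 : unitaryProd q (2 * j) ≤ q ^ degSum (2 * j) := by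
      rcases Nat.eq_zero_or_pos j with rfl | hj
      · simp [unitaryProd, degSum]
      · obtain ⟨j, rfl⟩ := Nat.exists_eq_succ_of_ne_zero hj.ne'
        exact (unitary_two_mul_lt hq j).le
    rw [h1, h2, pow_add q (degSum (2 * j)) (2 * j + 2)]
    calc unitaryProd q (2 * j) * (q ^ (2 * j + 2) - 1)
        ≤ q ^ degSum (2 * j) * (q ^ (2 * j + 2) - 1) := Nat.mul_le_mul_right _ h3
      _ < _ := Nat.mul_lt_mul_of_pos_left (Nat.sub_lt (pow_pos (by omega) _) one_pos) (pow_pos (by omega) _)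

end CfsgLib.LieOrderBound
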