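import Cfsg.Agent.LieOrderBound.Arith
import Cfsg.Agent.S0243
import Cfsg.Agent.S0245
import Cfsg.Agent.S0246
import Cfsg.Agent.S0280
import Cfsg.Agent.S0292
import Cfsg.Agent.S0293
import Cfsg.Agent.S0294
import Cfsg.Prelude.Def_LieTypeChar

/-!
Order bounds for the classical groups of Lie type.
-/

set_option autoImplicit false

open Cfsg

namespace CfsgLib.LieOrderBound

/-- Both bounds for a group order. -/
def Bound (p N : ℕ) : Prop := N < p ^ (3 * N.factorization p) ∧ N ^ 3 < p ^ (8 * N.factorization p)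

variable {p : ℕ}

/-- The cardinality of a finite field of characteristic `p` as a power of `p`. -/
theorem exists_card_eq (F : Type) [Field F] [Fintype F] [CharP F p] :
    p.Prime ∧ ∃ f, 0 < f ∧ Fintype.card F = p ^ f := by
  obtain ⟨n, hp, hn⟩ := FiniteField.card F p
  exact ⟨hp, n, n.pos, hn⟩

theorem exists_root_eq (hp : p.Prime) {q r f : ℕ} (hr : r ≠ 0) (hf : 0 < f) (h : q ^ r = p ^ f) :
    ∃ j, 0 < j ∧ q = p ^ j := by
  obtain ⟨j, -, rfl⟩ := (Nat.dvd_prime_pow hp).1 ((dvd_pow_self q hr).trans h.dvd)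
  refine ⟨j, Nat.pos_of_ne_zero fun h0 => ?_, rfl⟩
  subst h0
  rw [pow_zero, one_pow] at h
  exact hp.ne_one ((pow_eq_one_iff.1 h.symm).resolve_right hf.ne')

variable (hp : p.Prime) {q f : ℕ} (hf : 0 < f) (hq : q = p ^ f)
include hp hf hq

theorem p_dvd : p ∣ q := hq ▸ dvd_pow_self p hf.ne'

theorem q_two_le : 2 ≤ q := hp.two_le.trans (Nat.le_of_dvd (hq ▸ pow_pos hp.pos f) (p_dvd hp hf hq))

theorem not_dvd_gcd_sub_one (n i : ℕ) (hi : i ≠ 0) : ¬ p ∣ Nat.gcd n (q ^ i - 1) :=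
  not_dvd_of_dvd (Nat.gcd_dvd_right _ _)
    (not_dvd_pow_sub_one hp (p_dvd hp hf hq) (by have := q_two_le hp hf hq; omega) hi)

theorem psl_formula {F : Type} [Field F] [Fintype F] (hF : Fintype.card F = q) (n : ℕ) (hn : 2 ≤ n) :
    Nat.gcd n (q - 1) * Nat.card (Matrix.ProjectiveSpecialLinearGroup (Fin n) F) =
      q ^ (∑ i ∈ Finset.range n, i) * ∏ i ∈ Finset.range (n - 1), (q ^ (i + 2) - 1) := by
  have h := Cfsg.Agent.S0243.result hF n hn
  have hq2 := q_two_le hp hf hq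
  refine Nat.eq_of_mul_eq_mul_left (show 0 < q - 1 by omega) ?_
  rw [mul_left_comm] at h
  rw [h, Fin.prod_univ_eq_prod_range (fun i => q ^ n - q ^ i) n, ← Finset.prod_pow_eq_pow_sum]
  have h1 : ∀ i ∈ Finset.range n, q ^ n - q ^ i = q ^ i * (q ^ (n - 1 - i + 1) - 1) := fun i hi => by
    rw [Finset.mem_range] at hi
    rw [Nat.mul_sub, mul_one, ← pow_add, show i + (n - 1 - i + 1) = n by omega]
  rw [Finset.prod_congr rfl h1, Finset.prod_mul_distrib,
    Finset.prod_range_reflect (fun i => q ^ (i + 1) - 1) n]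
  obtain ⟨m, rfl⟩ : ∃ m, n = m + 1 := ⟨n - 1, by omega⟩
  rw [Finset.prod_range_succ' (fun i => q ^ (i + 1) - 1), Nat.add_sub_cancel, zero_add, pow_one]
  ring

theorem not_dvd_prod_linear (n : ℕ) : ¬ p ∣ ∏ i ∈ Finset.range n, (q ^ (i + 2) - 1) :=
  not_dvd_prod hp fun i _ =>
    not_dvd_pow_sub_one hp (p_dvd hp hf hq) (by have := q_two_le hp hf hq; omega) (by omega)

theorem psl {F : Type} [Field F] [Fintype F] (hF : Fintype.card F = q) (n : ℕ) (hn : 3 ≤ n) :
    Bound p (Nat.card (Matrix.ProjectiveSpecialLinearGroup (Fin n) F)) := by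
  have hq2 := q_two_le hp hf hq
  refine bounds (D := degSum (n - 1)) hp hq (pow_one q ▸ not_dvd_gcd_sub_one hp hf hq n 1 one_ne_zero)
    (not_dvd_prod_linear hp hf hq _) (psl_formula hp hf hq hF n (by omega))
    (prod_linear_lt (by omega) (by omega)) ?_
  obtain ⟨m, rfl⟩ : ∃ m, n = m + 3 := ⟨n - 3, by omega⟩
  have h1 := two_mul_degSum (m + 2)
  have h2 := Finset.sum_range_id_mul_two (m + 3)
  simp only [show m + 3 - 1 = m + 2 by omega] at h2 ⊢
  nlinarith

theorem psl_two {F : Type} [Field F] [Fintype F] (hF : Fintype.card F = q) :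
    Nat.card (Matrix.ProjectiveSpecialLinearGroup (Fin 2) F) <
        p ^ (3 * (Nat.card (Matrix.ProjectiveSpecialLinearGroup (Fin 2) F)).factorization p) ∧
      q = p ^ (Nat.card (Matrix.ProjectiveSpecialLinearGroup (Fin 2) F)).factorization p := by
  have hq2 := q_two_le hp hf hq
  refine bounds_two hp hq (pow_one q ▸ not_dvd_gcd_sub_one hp hf hq 2 1 one_ne_zero)
    (not_dvd_pow_sub_one hp (p_dvd hp hf hq) (by omega) two_ne_zero) ?_
  rw [psl_formula hp hf hq hF 2 le_rfl]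
  simp [Finset.sum_range_succ]

theorem psp {F : Type} [Field F] [Fintype F] (hF : Fintype.card F = q) (m : ℕ) (hm : 2 ≤ m) :
    Bound p (Nat.card (PSp m F)) := by
  have hq2 := q_two_le hp hf hq
  have h : Nat.gcd 2 (q - 1) * Nat.card (PSp m F) =
      q ^ m ^ 2 * ∏ i ∈ Finset.range m, (q ^ (2 * (i + 1)) - 1) := by
    rw [← Cfsg.Agent.S0245.result hF m, ← Cfsg.Agent.S0246.result hF m (by omega),
      Subgroup.card_eq_card_quotient_mul_card_subgroup (Subgroup.center (Matrix.symplecticGroup (Fin m) F)),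
      mul_comm]
  exact bounds (D := m * (m + 1)) hp hq (pow_one q ▸ not_dvd_gcd_sub_one hp hf hq 2 1 one_ne_zero)
    (not_dvd_prod hp fun i _ => not_dvd_pow_sub_one hp (p_dvd hp hf hq) (by omega) (by omega)) h
    (prod_even_lt (by omega) (by omega)) (by nlinarith)

theorem psu {F : Type} [Field F] [Fintype F] (hF : Fintype.card F = q ^ 2) (n : ℕ) (hn : 3 ≤ n) :
    Bound p (Nat.card (PSU n F q)) := by
  have hq2 := q_two_le hp hf hq
  have h := Cfsg.Agent.S0280.result hF n (by omega)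
  obtain ⟨m, rfl⟩ : ∃ m, n = m + 1 := ⟨n - 1, by omega⟩
  have hprod : (∏ i ∈ Finset.range (m + 1), if Even i then q ^ (i + 1) + 1 else q ^ (i + 1) - 1) =
      (q + 1) * unitaryProd q m := by
    rw [Finset.prod_range_succ', unitaryProd, mul_comm]
    simp only [Nat.even_add_one, ite_not, add_assoc, Nat.reduceAdd, zero_add, pow_one, Even.zero, if_true]
  have h' : Nat.gcd (m + 1) (q + 1) * Nat.card (PSU (m + 1) F q) =
      q ^ ((m + 1) * (m + 1 - 1) / 2) * unitaryProd q m := by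
    refine Nat.eq_of_mul_eq_mul_left (show 0 < q + 1 by omega) ?_
    rw [hprod] at h
    linarith [h]
  refine bounds (D := degSum m) hp hq
    (not_dvd_of_dvd (Nat.gcd_dvd_right _ _) (pow_one q ▸ not_dvd_pow_add_one hp (p_dvd hp hf hq) one_ne_zero))
    (not_dvd_prod hp fun i _ => ?_) h' (unitaryProd_lt hq2 (by omega)) ?_
  · split
    · exact not_dvd_pow_sub_one hp (p_dvd hp hf hq) (by omega) (by omega)
    · exact not_dvd_pow_add_one hp (p_dvd hp hf hq) (by omega)
  · have h1 := two_mul_degSum m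
    obtain ⟨c, hc⟩ : 2 ∣ (m + 1) * (m + 1 - 1) := (Nat.even_mul_pred_self (m + 1)).two_dvd
    rw [hc, Nat.mul_div_cancel_left _ two_pos]
    simp only [Nat.add_sub_cancel] at hc
    nlinarith

theorem pomega_odd {F : Type} [Field F] [Fintype F] (hF : Fintype.card F = q) (hodd : Odd q) (m : ℕ) (hm : 3 ≤ m) :
    Bound p (Nat.card (POmega F (quadFormOdd m F))) := by
  have hq2 := q_two_le hp hf hq
  have h2 : ¬ p ∣ 2 := fun h =>
    Nat.not_even_iff_odd.2 hodd (even_iff_two_dvd.2 ((Nat.prime_dvd_prime_iff_eq hp Nat.prime_two).1 h ▸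
      p_dvd hp hf hq))
  exact bounds (D := m * (m + 1)) hp hq h2
    (not_dvd_prod hp fun i _ => not_dvd_pow_sub_one hp (p_dvd hp hf hq) (by omega) (by omega))
    (Cfsg.Agent.S0292.result hF hodd m hm) (prod_even_lt (by omega) (by omega)) (by nlinarith)

theorem pomega_plus {F : Type} [Field F] [Fintype F] (hF : Fintype.card F = q) (m : ℕ) (hm : 4 ≤ m) :
    Bound p (Nat.card (POmega F (quadFormPlus m F))) := by
  have hq2 := q_two_le hp hf hq
  refine bounds (D := m + (m - 1) * m) hp hq (not_dvd_gcd_sub_one hp hf hq 4 m (by omega))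
    (not_dvd_mul' hp (not_dvd_pow_sub_one hp (p_dvd hp hf hq) (by omega) (by omega))
      (not_dvd_prod hp fun i _ => not_dvd_pow_sub_one hp (p_dvd hp hf hq) (by omega) (by omega)))
    ((Cfsg.Agent.S0293.result hF m hm).trans (mul_assoc _ _ _)) ?_ ?_
  · have h := prod_even_lt (q := q) (by omega) (show 0 < m - 1 by omega)
    rw [show m - 1 + 1 = m by omega] at h
    rw [pow_add]
    exact Nat.mul_lt_mul_of_le_of_lt (Nat.sub_le _ _) h (pow_pos (by omega) _)
  · obtain ⟨k, rfl⟩ : ∃ k, m = k + 4 := ⟨m - 4, by omega⟩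
    simp only [show k + 4 - 1 = k + 3 by omega]
    nlinarith

theorem pomega_minus {F : Type} [Field F] [Fintype F] (hF : Fintype.card F = q) (m : ℕ) (hm : 4 ≤ m) (a b : F)
    (hab : ∀ z₁ z₂ : F, z₁ ^ 2 + a * z₁ * z₂ + b * z₂ ^ 2 = 0 → z₁ = 0 ∧ z₂ = 0) :
    Bound p (Nat.card (POmega F (quadFormMinus (m - 1) F a b))) := by
  have hq2 := q_two_le hp hf hq
  refine bounds (D := m + 1 + (m - 1) * m) hp hq
    (not_dvd_of_dvd (Nat.gcd_dvd_right _ _) (not_dvd_pow_add_one hp (p_dvd hp hf hq) (show m ≠ 0 by omega)))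
    (not_dvd_mul' hp (not_dvd_pow_add_one hp (p_dvd hp hf hq) (by omega))
      (not_dvd_prod hp fun i _ => not_dvd_pow_sub_one hp (p_dvd hp hf hq) (by omega) (by omega)))
    ((Cfsg.Agent.S0294.result hF m hm a b hab).trans (mul_assoc _ _ _)) ?_ ?_
  · have h := prod_even_lt (q := q) (by omega) (show 0 < m - 1 by omega)
    rw [show m - 1 + 1 = m by omega] at h
    rw [pow_add]
    refine Nat.mul_lt_mul_of_le_of_lt ?_ h (pow_pos (by omega) _)
    have : 0 < q ^ m := pow_pos (by omega) _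
    rw [pow_succ]
    nlinarith
  · obtain ⟨k, rfl⟩ : ∃ k, m = k + 4 := ⟨m - 4, by omega⟩
    simp only [show k + 4 - 1 = k + 3 by omega]
    nlinarith

end CfsgLib.LieOrderBound
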