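import Cfsg.Agent.LieOrderBound.Classical
import Cfsg.Agent.S1059
import Cfsg.Agent.S1062
import Cfsg.Agent.S1063
import Cfsg.Agent.S1064
import Cfsg.Agent.S1065
import Cfsg.Agent.S1066
import Cfsg.Agent.S1067
import Cfsg.Agent.S1069
import Cfsg.Agent.S0324
import Cfsg.Agent.Suzuki.LieModel

/-!
Order bounds for the exceptional and twisted groups of Lie type.
-/

set_option autoImplicit false

open Cfsg

namespace CfsgLib.LieOrderBound

/-- A product with each factor below a power of `q`. -/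
theorem mul_lt_pow {q a b i j : ℕ} (hq : 0 < q) (ha : a ≤ q ^ i) (hb : b < q ^ j) : a * b < q ^ (i + j) :=
  pow_add q i j ▸ Nat.mul_lt_mul_of_le_of_lt ha hb (pow_pos hq i)

theorem sub_one_lt_pow {q i : ℕ} (hq : 0 < q) : q ^ i - 1 < q ^ i := Nat.sub_lt (pow_pos hq i) one_pos

variable {p : ℕ} (hp : p.Prime) {q f : ℕ} (hf : 0 < f) (hq : q = p ^ f)
include hp hf hq

theorem ndvd_sub {i : ℕ} (hi : i ≠ 0) : ¬ p ∣ q ^ i - 1 :=
  not_dvd_pow_sub_one hp (p_dvd hp hf hq) (by have := q_two_le hp hf hq; omega) hi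

theorem ndvd_add {i : ℕ} (hi : i ≠ 0) : ¬ p ∣ q ^ i + 1 :=
  not_dvd_pow_add_one hp (p_dvd hp hf hq) hi

theorem g2 {F : Type} [Field F] [Fintype F] (hF : Fintype.card F = q) :
    Bound p (Nat.card ↥(Lie.chevG2.group F)) := by
  have hq0 : 0 < q := by have := q_two_le hp hf hq; omega
  have n := fun i => ndvd_sub hp hf hq (i := i)
  exact bounds (d := 1) (e := 6) (D := 8) (B := (q ^ 2 - 1) * (q ^ 6 - 1)) hp hq hp.not_dvd_one
    (not_dvd_mul' hp (n 2 (by omega)) (n 6 (by omega)))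
    (by rw [Cfsg.Agent.S1059.result hF]; ring)
    (mul_lt_pow hq0 (Nat.sub_le _ _) (sub_one_lt_pow hq0)) (by norm_num)

theorem f4 {F : Type} [Field F] [Fintype F] (hF : Fintype.card F = q) :
    Bound p (Nat.card ↥(Lie.chevF4.group F)) := by
  have hq0 : 0 < q := by have := q_two_le hp hf hq; omega
  have n := fun i => ndvd_sub hp hf hq (i := i)
  exact bounds (d := 1) (e := 24) (D := 2 + (6 + (8 + 12)))
    (B := (q ^ 2 - 1) * ((q ^ 6 - 1) * ((q ^ 8 - 1) * (q ^ 12 - 1)))) hp hq hp.not_dvd_one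
    (not_dvd_mul' hp (n 2 (by omega)) (not_dvd_mul' hp (n 6 (by omega))
      (not_dvd_mul' hp (n 8 (by omega)) (n 12 (by omega)))))
    (by rw [Cfsg.Agent.S1062.result hF]; ring)
    (mul_lt_pow hq0 (Nat.sub_le _ _) (mul_lt_pow hq0 (Nat.sub_le _ _)
      (mul_lt_pow hq0 (Nat.sub_le _ _) (sub_one_lt_pow hq0)))) (by norm_num)

theorem e6 {F : Type} [Field F] [Fintype F] (hF : Fintype.card F = q) :
    Bound p (Nat.card ↥(Lie.chevE6.group F)) := by
  have hq0 : 0 < q := by have := q_two_le hp hf hq; omega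
  have n := fun i => ndvd_sub hp hf hq (i := i)
  exact bounds (d := Nat.gcd 3 (q - 1)) (e := 36) (D := 2 + (5 + (6 + (8 + (9 + 12)))))
    (B := (q ^ 2 - 1) * ((q ^ 5 - 1) * ((q ^ 6 - 1) * ((q ^ 8 - 1) * ((q ^ 9 - 1) * (q ^ 12 - 1)))))) hp hq
    (pow_one q ▸ not_dvd_gcd_sub_one hp hf hq 3 1 one_ne_zero)
    (not_dvd_mul' hp (n 2 (by omega)) (not_dvd_mul' hp (n 5 (by omega)) (not_dvd_mul' hp (n 6 (by omega))
      (not_dvd_mul' hp (n 8 (by omega)) (not_dvd_mul' hp (n 9 (by omega)) (n 12 (by omega)))))))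
    (by rw [Cfsg.Agent.S1063.result hF]; ring)
    (mul_lt_pow hq0 (Nat.sub_le _ _) (mul_lt_pow hq0 (Nat.sub_le _ _) (mul_lt_pow hq0 (Nat.sub_le _ _)
      (mul_lt_pow hq0 (Nat.sub_le _ _) (mul_lt_pow hq0 (Nat.sub_le _ _) (sub_one_lt_pow hq0))))))
    (by norm_num)

theorem e7 {F : Type} [Field F] [Fintype F] (hF : Fintype.card F = q) :
    Bound p (Nat.card ↥(Lie.chevE7.group F)) := by
  have hq0 : 0 < q := by have := q_two_le hp hf hq; omega
  have n := fun i => ndvd_sub hp hf hq (i := i)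
  exact bounds (d := Nat.gcd 2 (q - 1)) (e := 63) (D := 2 + (6 + (8 + (10 + (12 + (14 + 18))))))
    (B := (q ^ 2 - 1) * ((q ^ 6 - 1) * ((q ^ 8 - 1) * ((q ^ 10 - 1) * ((q ^ 12 - 1) * ((q ^ 14 - 1) *
      (q ^ 18 - 1))))))) hp hq
    (pow_one q ▸ not_dvd_gcd_sub_one hp hf hq 2 1 one_ne_zero)
    (not_dvd_mul' hp (n 2 (by omega)) (not_dvd_mul' hp (n 6 (by omega)) (not_dvd_mul' hp (n 8 (by omega))
      (not_dvd_mul' hp (n 10 (by omega)) (not_dvd_mul' hp (n 12 (by omega))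
        (not_dvd_mul' hp (n 14 (by omega)) (n 18 (by omega))))))))
    (by rw [Cfsg.Agent.S1064.result hF]; ring)
    (mul_lt_pow hq0 (Nat.sub_le _ _) (mul_lt_pow hq0 (Nat.sub_le _ _) (mul_lt_pow hq0 (Nat.sub_le _ _)
      (mul_lt_pow hq0 (Nat.sub_le _ _) (mul_lt_pow hq0 (Nat.sub_le _ _) (mul_lt_pow hq0 (Nat.sub_le _ _)
        (sub_one_lt_pow hq0)))))))
    (by norm_num)

theorem e8 {F : Type} [Field F] [Fintype F] (hF : Fintype.card F = q) :
    Bound p (Nat.card ↥(Lie.chevE8.group F)) := by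
  have hq0 : 0 < q := by have := q_two_le hp hf hq; omega
  have n := fun i => ndvd_sub hp hf hq (i := i)
  exact bounds (d := 1) (e := 120) (D := 2 + (8 + (12 + (14 + (18 + (20 + (24 + 30)))))))
    (B := (q ^ 2 - 1) * ((q ^ 8 - 1) * ((q ^ 12 - 1) * ((q ^ 14 - 1) * ((q ^ 18 - 1) * ((q ^ 20 - 1) *
      ((q ^ 24 - 1) * (q ^ 30 - 1)))))))) hp hq hp.not_dvd_one
    (not_dvd_mul' hp (n 2 (by omega)) (not_dvd_mul' hp (n 8 (by omega)) (not_dvd_mul' hp (n 12 (by omega))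
      (not_dvd_mul' hp (n 14 (by omega)) (not_dvd_mul' hp (n 18 (by omega))
        (not_dvd_mul' hp (n 20 (by omega)) (not_dvd_mul' hp (n 24 (by omega)) (n 30 (by omega)))))))))
    (by rw [Cfsg.Agent.S1065.result hF]; ring)
    (mul_lt_pow hq0 (Nat.sub_le _ _) (mul_lt_pow hq0 (Nat.sub_le _ _) (mul_lt_pow hq0 (Nat.sub_le _ _)
      (mul_lt_pow hq0 (Nat.sub_le _ _) (mul_lt_pow hq0 (Nat.sub_le _ _) (mul_lt_pow hq0 (Nat.sub_le _ _)
        (mul_lt_pow hq0 (Nat.sub_le _ _) (sub_one_lt_pow hq0))))))))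
    (by norm_num)

theorem add_one_le_pow_succ {i : ℕ} (hi : i ≠ 0) : q ^ i + 1 ≤ q ^ (i + 1) := by
  have h2 := q_two_le hp hf hq
  have : 0 < q ^ i := pow_pos (by omega) _
  rw [pow_succ]
  nlinarith

theorem twisted_e6 {K : Type} [Field K] [Fintype K] (hK : Fintype.card K = q ^ 2) :
    Bound p (Nat.card ↥(Lie.twistedE6 K q)) := by
  have hq0 : 0 < q := by have := q_two_le hp hf hq; omega
  have n := fun i => ndvd_sub hp hf hq (i := i)
  have m := fun i => ndvd_add hp hf hq (i := i)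
  exact bounds (d := Nat.gcd 3 (q + 1)) (e := 36) (D := 2 + (6 + (6 + (8 + (10 + 12)))))
    (B := (q ^ 2 - 1) * ((q ^ 5 + 1) * ((q ^ 6 - 1) * ((q ^ 8 - 1) * ((q ^ 9 + 1) * (q ^ 12 - 1)))))) hp hq
    (not_dvd_of_dvd (Nat.gcd_dvd_right _ _) (pow_one q ▸ m 1 one_ne_zero))
    (not_dvd_mul' hp (n 2 (by omega)) (not_dvd_mul' hp (m 5 (by omega)) (not_dvd_mul' hp (n 6 (by omega))
      (not_dvd_mul' hp (n 8 (by omega)) (not_dvd_mul' hp (m 9 (by omega)) (n 12 (by omega)))))))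
    (by rw [Cfsg.Agent.S1066.result ⟨p, f, hp.prime, hf, hq.symm⟩ hK]; ring)
    (mul_lt_pow hq0 (Nat.sub_le _ _) (mul_lt_pow hq0 (add_one_le_pow_succ hp hf hq (by omega))
      (mul_lt_pow hq0 (Nat.sub_le _ _) (mul_lt_pow hq0 (Nat.sub_le _ _)
        (mul_lt_pow hq0 (add_one_le_pow_succ hp hf hq (by omega)) (sub_one_lt_pow hq0))))))
    (by norm_num)

theorem twisted_d4 {K : Type} [Field K] [Fintype K] (hK : Fintype.card K = q ^ 3) :
    Bound p (Nat.card ↥(Lie.twistedD4 K q)) := by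
  have h2 := q_two_le hp hf hq
  have hq0 : 0 < q := by omega
  have n := fun i => ndvd_sub hp hf hq (i := i)
  have hmid : ¬ p ∣ q ^ 8 + q ^ 4 + 1 := fun h =>
    hp.ne_one (Nat.dvd_one.1 ((Nat.dvd_add_right (dvd_add (dvd_pow (p_dvd hp hf hq) (by norm_num))
      (dvd_pow (p_dvd hp hf hq) (by norm_num)))).1 h))
  exact bounds (d := 1) (e := 12) (D := 9 + (2 + 6)) (B := (q ^ 8 + q ^ 4 + 1) * ((q ^ 2 - 1) * (q ^ 6 - 1)))
    hp hq hp.not_dvd_one (not_dvd_mul' hp hmid (not_dvd_mul' hp (n 2 (by omega)) (n 6 (by omega))))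
    (by rw [Cfsg.Agent.S1067.result ⟨p, f, hp.prime, hf, hq.symm⟩ hK]; ring)
    (mul_lt_pow hq0 (by
        have h1 : q ^ 4 + 1 ≤ q ^ 5 := add_one_le_pow_succ hp hf hq (by norm_num)
        have h3 : q ^ 5 ≤ q ^ 8 := Nat.pow_le_pow_right hq0 (by norm_num)
        have h4 : 2 * q ^ 8 ≤ q ^ 9 := by rw [pow_succ q 8, mul_comm]; exact Nat.mul_le_mul_left _ h2
        omega) (mul_lt_pow hq0 (Nat.sub_le _ _) (sub_one_lt_pow hq0))) (by norm_num)

omit hp hf hq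

theorem suzuki {F : Type} [Field F] [Fintype F] {m : ℕ} (hm : 1 ≤ m)
    (hF : Fintype.card F = 2 ^ (2 * m + 1)) :
    Bound 2 (Nat.card ↥(Lie.Sz F (2 ^ (m + 1)))) := by
  haveI := CfsgLib.Suzuki.charP_two hF
  have hc := Nat.card_congr (CfsgLib.Suzuki.lieSzEquiv hm hF).toEquiv
  set Q := 2 ^ (2 * m + 1) with hQ
  have hQ2 : 2 ≤ Q := q_two_le Nat.prime_two (by omega) hQ
  exact bounds (d := 1) (e := 2) (D := 3) (B := (Q ^ 2 + 1) * (Q - 1)) Nat.prime_two hQ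
    Nat.prime_two.not_dvd_one
    (not_dvd_mul' Nat.prime_two (ndvd_add Nat.prime_two (by omega) hQ two_ne_zero)
      (pow_one Q ▸ ndvd_sub Nat.prime_two (by omega) hQ one_ne_zero))
    (by rw [← hc, Cfsg.Agent.S0324.result hm hF, one_mul, mul_assoc])
    (by
      obtain ⟨a, ha⟩ : ∃ a, Q = a + 1 := ⟨Q - 1, by omega⟩
      rw [ha, Nat.add_sub_cancel]
      nlinarith) (by norm_num)

theorem ree {K : Type} [Field K] [Fintype K] {m : ℕ} (hK : Fintype.card K = 3 ^ (2 * m + 1)) :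
    Bound 3 (Nat.card ↥(Lie.twistedG2 K (3 ^ m))) := by
  have hc := Cfsg.Agent.S1069.result hK
  set Q := 3 ^ (2 * m + 1) with hQ
  have hQ2 : 2 ≤ Q := q_two_le Nat.prime_three (by omega) hQ
  exact bounds (d := 1) (e := 3) (D := 1 + 4) (B := (Q - 1) * (Q ^ 3 + 1)) Nat.prime_three hQ
    Nat.prime_three.not_dvd_one
    (not_dvd_mul' Nat.prime_three (pow_one Q ▸ ndvd_sub Nat.prime_three (by omega) hQ one_ne_zero)
      (ndvd_add Nat.prime_three (by omega) hQ (by norm_num)))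
    (by rw [hc, one_mul, mul_assoc])
    (by
      rw [pow_add, pow_one]
      exact Nat.mul_lt_mul_of_lt_of_le (Nat.sub_lt (by omega) one_pos)
        (add_one_le_pow_succ Nat.prime_three (by omega) hQ (by norm_num)) (by positivity)) (by norm_num)

/-- `²F₄(q)`, given the order formula. -/
theorem large_ree {m N : ℕ} (hN : N = (2 ^ (2 * m + 1)) ^ 12 * (2 ^ (2 * m + 1) - 1) *
      ((2 ^ (2 * m + 1)) ^ 3 + 1) * ((2 ^ (2 * m + 1)) ^ 4 - 1) * ((2 ^ (2 * m + 1)) ^ 6 + 1)) :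
    Bound 2 N := by
  set Q := 2 ^ (2 * m + 1) with hQ
  have hf : 0 < 2 * m + 1 := by omega
  have hQ2 : 2 ≤ Q := q_two_le Nat.prime_two hf hQ
  have n := fun i => ndvd_sub Nat.prime_two hf hQ (i := i)
  have a := fun i => ndvd_add Nat.prime_two hf hQ (i := i)
  have s := fun i => add_one_le_pow_succ Nat.prime_two hf hQ (i := i)
  exact bounds (d := 1) (e := 12) (D := 4 + (7 + (4 + 1)))
    (B := (Q ^ 3 + 1) * ((Q ^ 6 + 1) * ((Q ^ 4 - 1) * (Q - 1)))) Nat.prime_two hQ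
    Nat.prime_two.not_dvd_one
    (not_dvd_mul' Nat.prime_two (a 3 (by omega)) (not_dvd_mul' Nat.prime_two (a 6 (by omega))
      (not_dvd_mul' Nat.prime_two (n 4 (by omega)) (pow_one Q ▸ n 1 one_ne_zero))))
    (by rw [hN]; ring)
    (mul_lt_pow (by omega) (s 3 (by omega)) (mul_lt_pow (by omega) (s 6 (by omega))
      (mul_lt_pow (by omega) (Nat.sub_le _ _) (by rw [pow_one]; exact Nat.sub_lt (by omega) one_pos))))
    (by norm_num)

end CfsgLib.LieOrderBound
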