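import Cfsg.Agent.LieOrderBound.Exceptional

/-!
The order of a group of Lie type against its `p`-part, family by family.
-/

set_option autoImplicit false

open Cfsg

namespace CfsgLib.LieOrderBound

universe u

/-- All families, the order of `²F₄(q)` being given. -/
theorem main
    (h2F4 : ∀ {K : Type} [Field K] [Fintype K] {m : ℕ}, Fintype.card K = 2 ^ (2 * m + 1) →
      Nat.card ↥(Lie.twistedF4 K (2 ^ m)) =
        (2 ^ (2 * m + 1)) ^ 12 * (2 ^ (2 * m + 1) - 1) * ((2 ^ (2 * m + 1)) ^ 3 + 1) *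
          ((2 ^ (2 * m + 1)) ^ 4 - 1) * ((2 ^ (2 * m + 1)) ^ 6 + 1))
    {G : Type u} [Group G] {p : ℕ} (hG : IsLieTypeChar p G) :
    Nat.card G < p ^ (3 * (Nat.card G).factorization p) ∧
      ((¬ ∃ (F : Type) (_ : Field F) (_ : Fintype F), Fintype.card F = p ^ (Nat.card G).factorization p ∧
          Nonempty (G ≃* Matrix.ProjectiveSpecialLinearGroup (Fin 2) F)) →
        Nat.card G ^ 3 < p ^ (8 * (Nat.card G).factorization p)) := by
  have fin : ∀ {H : Type} [Group H] (_ : G ≃* H), Bound p (Nat.card H) →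
      Nat.card G < p ^ (3 * (Nat.card G).factorization p) ∧
        ((¬ ∃ (F : Type) (_ : Field F) (_ : Fintype F), Fintype.card F = p ^ (Nat.card G).factorization p ∧
            Nonempty (G ≃* Matrix.ProjectiveSpecialLinearGroup (Fin 2) F)) →
          Nat.card G ^ 3 < p ^ (8 * (Nat.card G).factorization p)) := fun e hb => by
    rw [Nat.card_congr e.toEquiv]
    exact ⟨hb.1, fun _ => hb.2⟩
  rcases hG with ⟨F, _, _, _, n, hn, -, ⟨e⟩⟩ | ⟨F, _, _, _, m, hm, -, ⟨e⟩⟩ |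
    ⟨F, _, _, _, n, q, hFq, hn, -, ⟨e⟩⟩ | ⟨F, _, _, _, m, hm, hodd, ⟨e⟩⟩ | ⟨F, _, _, _, m, hm, ⟨e⟩⟩ |
    ⟨F, _, _, _, m, a, b, hm, hab, ⟨e⟩⟩ | ⟨F, _, _, _, hcases⟩ | ⟨K, _, _, _, q, -, hcases⟩ |
    ⟨rfl, F, _, _, m, hm, hF, ⟨e⟩⟩ | ⟨rfl, F, _, _, m, hm, hF, ⟨e⟩⟩ | ⟨rfl, F, _, _, m, hm, hF, ⟨e⟩⟩
  · obtain ⟨hp, f, hf, hF⟩ := exists_card_eq (p := p) F
    rcases (lt_or_eq_of_le hn) with hn3 | rfl
    · exact fin e (psl hp hf hF rfl n hn3)
    · obtain ⟨h1, h2⟩ := psl_two hp hf hF (F := F) rfl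
      rw [Nat.card_congr e.toEquiv]
      exact ⟨h1, fun hne => absurd ⟨F, _, _, h2, ⟨e⟩⟩ hne⟩
  · obtain ⟨hp, f, hf, hF⟩ := exists_card_eq (p := p) F
    exact fin e (psp hp hf hF rfl m hm)
  · obtain ⟨hp, f, hf, hF⟩ := exists_card_eq (p := p) F
    obtain ⟨j, hj, hqj⟩ := exists_root_eq hp two_ne_zero hf (hFq.symm.trans hF)
    exact fin e (psu hp hj hqj hFq n hn)
  · obtain ⟨hp, f, hf, hF⟩ := exists_card_eq (p := p) F
    exact fin e (pomega_odd hp hf hF rfl hodd m hm)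
  · obtain ⟨hp, f, hf, hF⟩ := exists_card_eq (p := p) F
    exact fin e (pomega_plus hp hf hF rfl m hm)
  · obtain ⟨hp, f, hf, hF⟩ := exists_card_eq (p := p) F
    exact fin e (pomega_minus hp hf hF rfl m hm a b hab)
  · obtain ⟨hp, f, hf, hF⟩ := exists_card_eq (p := p) F
    rcases hcases with ⟨-, ⟨e⟩⟩ | ⟨⟨e⟩⟩ | ⟨⟨e⟩⟩ | ⟨⟨e⟩⟩ | ⟨⟨e⟩⟩
    · exact fin e (g2 hp hf hF rfl)
    · exact fin e (f4 hp hf hF rfl)
    · exact fin e (e6 hp hf hF rfl)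
    · exact fin e (e7 hp hf hF rfl)
    · exact fin e (e8 hp hf hF rfl)
  · obtain ⟨hp, f, hf, hF⟩ := exists_card_eq (p := p) K
    rcases hcases with ⟨hK, ⟨e⟩⟩ | ⟨hK, ⟨e⟩⟩
    · obtain ⟨j, hj, hqj⟩ := exists_root_eq hp two_ne_zero hf (hK.symm.trans hF)
      exact fin e (twisted_e6 hp hj hqj hK)
    · obtain ⟨j, hj, hqj⟩ := exists_root_eq hp three_ne_zero hf (hK.symm.trans hF)
      exact fin e (twisted_d4 hp hj hqj hK)
  · exact fin e (suzuki hm hF)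
  · exact fin e (large_ree (h2F4 hF))
  · exact fin e (ree hF)

end CfsgLib.LieOrderBound
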